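import Cfsg.Agent.Lib.DFourTwo.Checks
import Cfsg.Agent.Lib.ChevMult.Universal

/-!
The kernel of a stem extension of the group of type `D₄` over two elements is generated by two involutions.
-/

set_option autoImplicit false
set_option linter.unusedSectionVars false

namespace CfsgLib.DFourTwo

open Cfsg.Lie CfsgLib.ChevMult CfsgLib.Chevalley
open scoped commutatorElement

universe u

variable {A : Aux} {F : Type*} [Field F] {hS : Std chevD4 A} {Γ : Type u} [Group Γ]
variable {π : Γ →* ↥(chevD4.group F)}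

/-- the root element -/
noncomputable abbrev g (hS : Std chevD4 A) (F : Type*) [Field F] (r : ℕ) : ↥(chevD4.group F) := xg hS.cert r 1

/-- the commutator of two lifts -/
noncomputable abbrev P (E : CExt hS π) (r s : ℕ) : Γ := E.cl r s 1 1

theorem okCom_spec {r s : ℕ} (h : okComB chevD4 r s = true) : Commute (g hS F r) (g hS F s) :=
  okComB_spec (hS := hS) h 1 1

theorem map_P_of_com (E : CExt hS π) {r s : ℕ} (h : okComB chevD4 r s = true) : π (P E r s) = 1 := by
  rw [P, CExt.cl, map_commutatorElement, E.map_lift, E.map_lift, commutatorElement_eq_one_iff_commute]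
  exact okCom_spec (hS := hS) h

theorem kill_comm (E : CExt hS π) {r s : ℕ} (h : killB r s = true) : Comm hS π r s := by
  simp only [killB, Bool.and_eq_true, Bool.or_eq_true] at h
  rcases h.2 with h' | h'
  · exact comm_of_methodB E (by simp) h'
  · exact (comm_of_methodB E (by simp) h').symm

theorem kill_eq (E : CExt hS π) {r s : ℕ} (h : killB r s = true) : P E r s = 1 :=
  commutatorElement_eq_one_iff_commute.2 (kill_comm E h _ _ 1 1 (E.map_lift _ _) (E.map_lift _ _))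

variable (hF : ∀ s : F, s = 0 ∨ s = 1)
include hF

theorem two_eq : (1 : F) + 1 = 0 :=
  (hF (1 + 1)).resolve_right fun h => one_ne_zero (α := F) (by linear_combination h)

theorem one_of_sign {C : ℤ} (h : C = 1 ∨ C = -1) : -(C : F) * 1 * 1 = 1 := by
  rcases h with rfl | rfl
  · simp only [Int.cast_one]; linear_combination -(two_eq hF)
  · simp

theorem sum_img {r s k : ℕ} (h : sumB r s k = true) : ⁅g hS F r, g hS F s⁆ = g hS F k := by
  simp only [sumB, Bool.and_eq_true] at h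
  obtain ⟨C, hC, hs⟩ := singleB_spec (hS := hS) (F := F) h.2
  have := hs 1 1
  rwa [one_of_sign hF hC] at this

theorem map_P_of_sum (E : CExt hS π) {r s k : ℕ} (h : sumB r s k = true) : π (P E r s) = g hS F k := by
  rw [P, CExt.cl, map_commutatorElement, E.map_lift, E.map_lift]
  exact sum_img hF h

theorem g_sq (r : ℕ) : g hS F r * g hS F r = 1 := by
  rw [g, xg_mul, two_eq hF, xg_zero]

theorem lift_sq_mem (E : CExt hS π) (r : ℕ) : π (E.lift r 1 * E.lift r 1) = π 1 := by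
  rw [map_mul, map_one, E.map_lift]; exact g_sq (hS := hS) hF r

theorem P_sq_of (E : CExt hS π) {r s : ℕ} (hc : Commute (E.lift r 1) (P E r s)) : P E r s * P E r s = 1 := by
  have h1 : ⁅E.lift r 1 * E.lift r 1, E.lift s 1⁆ = 1 := by
    rw [E.comm_congr (lift_sq_mem hF E r) rfl, commutatorElement_one_left]
  have h2 : ⁅E.lift r 1 * E.lift r 1, E.lift s 1⁆ =
      E.lift r 1 * P E r s * (E.lift r 1)⁻¹ * P E r s := by
    simp only [P, CExt.cl, commutatorElement_def]; group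
  rwa [h1, hc.eq, mul_inv_cancel_right, eq_comm] at h2

theorem P_sq_com (E : CExt hS π) {r s : ℕ} (h : okComB chevD4 r s = true) : P E r s * P E r s = 1 :=
  P_sq_of hF E (E.mul_comm_ker (map_P_of_com E h) _)

theorem P_sq_sum (E : CExt hS π) {r s k : ℕ} (h : sumB r s k = true) (hk : killB r k = true) :
    P E r s * P E r s = 1 :=
  P_sq_of hF E (kill_comm E hk _ _ 1 1 (E.map_lift _ _) (map_P_of_sum hF E h))

theorem P_swap_of (E : CExt hS π) {r s : ℕ} (h : P E r s * P E r s = 1) : P E s r = P E r s := by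
  rw [P, CExt.cl, ← commutatorElement_inv]
  exact inv_eq_of_mul_eq_one_right h

theorem P_swap_com (E : CExt hS π) {r s : ℕ} (h : okComB chevD4 r s = true) : P E s r = P E r s :=
  P_swap_of hF E (P_sq_com hF E h)

/-- The Hall–Witt relation. -/
theorem edge (E : CExt hS π) {a m y x y' k : ℕ} (h : edgeOkB a m y x y' k = true) :
    P E a y' = P E x y' * P E x y := by
  simp only [edgeOkB, Bool.and_eq_true] at h
  obtain ⟨⟨⟨⟨⟨⟨⟨⟨ham, hmy⟩, hxy⟩, hay'⟩, hay⟩, hxy'⟩, hy'k⟩, hxk⟩, hak⟩ := h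
  set a' := E.lift a 1
  set m' := E.lift m 1
  set y₀ := E.lift y 1
  set p := ⁅a', m'⁆
  set q := ⁅m', y₀⁆
  have hp : π p = g hS F x := map_P_of_sum hF E ham
  have hq : π q = g hS F y' := map_P_of_sum hF E hmy
  have e1 : ⁅p, y₀⁆ = P E x y := E.cl_eq hp (E.map_lift _ _)
  have e2 : ⁅a', q⁆ = P E a y' := E.cl_eq (E.map_lift _ _) hq
  have e3 : ⁅p, q⁆ = P E x y' := E.cl_eq hp hq
  have hz : π ⁅a', y₀⁆ = 1 := map_P_of_com E hay
  have hw : π ⁅p, q⁆ = 1 := by rw [e3]; exact map_P_of_com E hxy'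
  have hqv : Commute q ⁅p, y₀⁆ := kill_comm E hy'k _ _ 1 1 hq (by rw [e1]; exact map_P_of_sum hF E hxy)
  have hconj : a' * q * a'⁻¹ = ⁅p * m', y₀⁆ := by
    rw [show a' * q * a'⁻¹ = ⁅a' * m' * a'⁻¹, a' * y₀ * a'⁻¹⁆ by simp only [q, commutatorElement_def]; group]
    refine E.comm_congr ?_ ?_
    · congr 1; simp only [p, commutatorElement_def]; group
    · rw [show a' * y₀ * a'⁻¹ = ⁅a', y₀⁆ * y₀ by simp only [commutatorElement_def]; group, map_mul, hz, one_mul]
  have key : ⁅a', q⁆ = ⁅p, q⁆ * ⁅p, y₀⁆ := by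
    have hpq : p * q * p⁻¹ = ⁅p, q⁆ * q := by simp only [commutatorElement_def]; group
    calc ⁅a', q⁆ = (a' * q * a'⁻¹) * q⁻¹ := by simp only [commutatorElement_def]
      _ = ⁅p * m', y₀⁆ * q⁻¹ := by rw [hconj]
      _ = (p * q * p⁻¹) * ⁅p, y₀⁆ * q⁻¹ := by simp only [q, commutatorElement_def]; group
      _ = ⁅p, q⁆ * (q * ⁅p, y₀⁆) * q⁻¹ := by rw [hpq]; group
      _ = ⁅p, q⁆ * ⁅p, y₀⁆ := by rw [hqv.eq]; group
  rw [← e1, ← e2, ← e3]
  exact key

theorem edge_sq (E : CExt hS π) {a m y x y' k : ℕ} (h : edgeOkB a m y x y' k = true) :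
    P E x y * P E x y = 1 ∧ P E a y' * P E a y' = 1 ∧ P E y x = P E x y ∧ P E y' a = P E a y' := by
  simp only [edgeOkB, Bool.and_eq_true] at h
  have h1 := P_sq_sum hF E h.1.1.1.1.1.1.2 h.1.2
  have h2 := P_sq_sum hF E h.1.1.1.1.1.2 h.2
  exact ⟨h1, h2, P_swap_of hF E h1, P_swap_of hF E h2⟩

theorem same_eq (E : CExt hS π) {a b c d : ℕ} (h : sameB a b c d = true) (hswap : P E b a = P E a b) :
    P E c d = P E a b := by
  simp only [sameB, Bool.or_eq_true, Bool.and_eq_true] at h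
  rcases h with ⟨h1, h2⟩ | ⟨h1, h2⟩
  · rw [← Nat.eq_of_beq_eq_true h1, ← Nat.eq_of_beq_eq_true h2]
  · rw [← Nat.eq_of_beq_eq_true h1, ← Nat.eq_of_beq_eq_true h2, hswap]

theorem step (E : CExt hS π) {r s a b e : ℕ} (h : stepB r s a b e = true) : P E e b = P E r s := by
  simp only [stepB, Bool.and_eq_true] at h
  obtain ⟨⟨⟨⟨⟨h1, h2⟩, hrb⟩, hea⟩, heb⟩, hrs⟩ := h
  have hc : π ⁅E.lift a 1, E.lift b 1⁆ = g hS F s := map_P_of_sum hF E h1
  have he : π ⁅E.lift a 1, E.lift r 1⁆ = g hS F e := map_P_of_sum hF E h2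
  set a' := E.lift a 1
  set b' := E.lift b 1
  set r' := E.lift r 1
  have hrb' : π ⁅r', b'⁆ = 1 := map_P_of_com E hrb
  have hrs' : π ⁅r', ⁅a', b'⁆⁆ = 1 := by
    rw [E.cl_eq (E.map_lift _ _) hc]; exact map_P_of_com E hrs
  have hconj : r' * ⁅a', b'⁆ * r'⁻¹ = ⁅⁅r', a'⁆ * a', b'⁆ := by
    rw [conjugate_commutatorElement]
    refine E.comm_congr ?_ ?_
    · congr 1; simp only [commutatorElement_def]; group
    · rw [show r' * b' * r'⁻¹ = ⁅r', b'⁆ * b' by simp only [commutatorElement_def]; group, map_mul, hrb', one_mul]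
  have hra : π ⁅r', a'⁆ = g hS F e := by
    rw [← commutatorElement_inv, map_inv, he, inv_eq_iff_mul_eq_one]
    exact g_sq hF e
  have e1 : ⁅r', ⁅a', b'⁆⁆ = P E r s := E.cl_eq (E.map_lift _ _) hc
  have e2 : ⁅⁅r', a'⁆, b'⁆ = P E e b := E.cl_eq hra (E.map_lift _ _)
  have hes : π ⁅⁅r', a'⁆, ⁅a', b'⁆⁆ = 1 := by
    have hh : π (⁅⁅r', a'⁆ * a', b'⁆) = π ⁅a', b'⁆ := by
      rw [← hconj, map_mul, map_mul, map_inv]
      have := okCom_spec (hS := hS) (F := F) hrs
      rw [hc, E.map_lift, this.eq, mul_inv_cancel_right]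
    have heb' : π ⁅⁅r', a'⁆, b'⁆ = 1 := by rw [e2]; exact map_P_of_com E heb
    rw [show ⁅⁅r', a'⁆ * a', b'⁆ = ⁅r', a'⁆ * ⁅a', b'⁆ * ⁅r', a'⁆⁻¹ * ⁅⁅r', a'⁆, b'⁆ by
      simp only [commutatorElement_def]; group, map_mul, heb', mul_one] at hh
    rw [map_commutatorElement, commutatorElement_def, ← map_inv, ← map_mul, ← map_mul]
    rw [hh, mul_inv_cancel]
  have key : P E r s = P E e b * ⁅⁅r', a'⁆, ⁅a', b'⁆⁆ := by
    rw [← e1, ← e2]
    calc ⁅r', ⁅a', b'⁆⁆ = (r' * ⁅a', b'⁆ * r'⁻¹) * ⁅a', b'⁆⁻¹ := by simp only [commutatorElement_def]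
      _ = ⁅⁅r', a'⁆ * a', b'⁆ * ⁅a', b'⁆⁻¹ := by rw [hconj]
      _ = (⁅r', a'⁆ * ⁅a', b'⁆ * ⁅r', a'⁆⁻¹) * ⁅⁅r', a'⁆, b'⁆ * ⁅a', b'⁆⁻¹ := by
          simp only [commutatorElement_def]; group
      _ = ⁅⁅r', a'⁆, ⁅a', b'⁆⁆ * (⁅a', b'⁆ * ⁅⁅r', a'⁆, b'⁆) * ⁅a', b'⁆⁻¹ := by
          simp only [commutatorElement_def]; group
      _ = ⁅⁅r', a'⁆, ⁅a', b'⁆⁆ * ⁅⁅r', a'⁆, b'⁆ := by
          rw [E.mul_comm_ker (show π ⁅⁅r', a'⁆, b'⁆ = 1 by rw [e2]; exact map_P_of_com E heb) ⁅a', b'⁆]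
          group
      _ = _ := (E.mul_comm_ker hes _).symm
  have hone : ⁅⁅r', a'⁆, ⁅a', b'⁆⁆ = 1 := by
    rw [commutatorElement_eq_one_iff_commute]
    refine E.commute_commutator (z := ⁅r', a'⁆) ?_ ?_
    · rw [hra, E.map_lift]; exact okCom_spec heb
    · rw [hra, E.map_lift]; exact okCom_spec hea
  rw [key, hone, mul_one]

/-- The two generators. -/
noncomputable abbrev B₁ (E : CExt hS π) : Γ := P E 15 22

/-- The second. -/
noncomputable abbrev B₂ (E : CExt hS π) : Γ := P E 16 22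

theorem triangle_eq (E : CExt hS π) : P E 20 21 = B₁ E * B₂ E := by
  have h := triangle
  simp only [Bool.and_eq_true] at h
  obtain ⟨⟨h1, h2⟩, h3⟩ := h
  have e1 := edge hF E h1
  have e2 := edge hF E h2
  have e3 := edge hF E h3
  rw [(edge_sq hF E h2).2.2.1] at e3
  rw [e3, ← mul_assoc] at e1
  have hcan := mul_right_cancel (e1.symm.trans e2)
  have sA := P_sq_com hF E (show okComB chevD4 15 22 = true by decide +kernel)
  calc P E 20 21 = B₁ E * (B₁ E * P E 20 21) := by rw [← mul_assoc, sA, one_mul]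
    _ = _ := by rw [hcan]

theorem P_mem (E : CExt hS π) {r s : ℕ} (hr : r < 24) (hs : s < 24) (ho : orthB r s = true) :
    P E r s ∈ Subgroup.closure {B₁ E, B₂ E} := by
  have key : ∀ i < 144, P E (cert.getD i (0, 0, 9, 0, [])).1 (cert.getD i (0, 0, 9, 0, [])).2.1 ∈
      Subgroup.closure {B₁ E, B₂ E} := by
    intro i
    induction i using Nat.strong_induction_on with
    | _ i ih =>
    intro hi
    have hc := cert_chk i hi
    unfold chk at hc
    rcases hcase : cert.getD i (0, 0, 9, 0, []) with ⟨r, s, kind, p, d⟩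
    rw [hcase] at hc
    rcases kind with _ | kind
    · simp only [Bool.and_eq_true] at hc
      have hi3 : i < 3 := Nat.le_of_ble_eq_true hc.1
      have hget : cert.getD i (0, 0, 9, 0, []) = (cert.take 3).getD i (0, 0, 9, 0, []) := by
        simp [List.getD_eq_getElem?_getD, List.getElem?_take, hi3]
      rw [hget, roots_eq] at hcase
      interval_cases i <;> simp at hcase <;> obtain ⟨rfl, rfl, -⟩ := hcase
      · exact Subgroup.subset_closure (Or.inl rfl)
      · exact Subgroup.subset_closure (Or.inr rfl)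
      · show P E 20 21 ∈ _
        rw [triangle_eq hF E]
        exact mul_mem (Subgroup.subset_closure (Or.inl rfl)) (Subgroup.subset_closure (Or.inr rfl))
    simp only [Bool.and_eq_true] at hc
    obtain ⟨⟨hp, hor⟩, hrule⟩ := hc
    have hp : p < i := Nat.le_of_ble_eq_true hp
    have hmem := ih p hp (lt_trans hp hi)
    rcases hpar : cert.getD p (0, 0, 9, 0, []) with ⟨r', s', k', p', d'⟩
    rw [hpar] at hmem hrule
    simp only [orthB, Bool.and_eq_true] at hor
    rcases kind with _ | _ | _ | _ | kind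
    · -- exchange
      simp only [Bool.and_eq_true] at hrule
      obtain rfl := Nat.eq_of_beq_eq_true hrule.1
      obtain rfl := Nat.eq_of_beq_eq_true hrule.2
      show P E r s ∈ _
      rw [P_swap_com hF E hor.1.2]
      exact hmem
    · rcases d with _ | ⟨a, _ | ⟨b, _ | ⟨e, _ | ⟨_, _⟩⟩⟩⟩ <;> simp only [Bool.and_eq_true, Bool.false_eq_true] at hrule
      obtain rfl := Nat.eq_of_beq_eq_true hrule.1.1
      obtain rfl := Nat.eq_of_beq_eq_true hrule.1.2
      show P E r s ∈ _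
      rw [step hF E hrule.2]; exact hmem
    · rcases d with _ | ⟨a, _ | ⟨b, _ | ⟨e, _ | ⟨_, _⟩⟩⟩⟩ <;> simp only [Bool.and_eq_true, Bool.false_eq_true] at hrule
      obtain rfl := Nat.eq_of_beq_eq_true hrule.1.1
      obtain rfl := Nat.eq_of_beq_eq_true hrule.1.2
      show P E r s ∈ _
      rw [← step hF E hrule.2]; exact hmem
    · rcases d with _ | ⟨a, _ | ⟨m, _ | ⟨y, _ | ⟨x, _ | ⟨z, _ | ⟨k, _ | ⟨a', _ | ⟨m', _ | ⟨y', _ |
        ⟨x', _ | ⟨z', _ | ⟨k', _ | ⟨_, _⟩⟩⟩⟩⟩⟩⟩⟩⟩⟩⟩⟩⟩ <;>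
        simp only [Bool.and_eq_true, Bool.or_eq_true, Bool.false_eq_true] at hrule
      obtain ⟨⟨⟨⟨⟨⟨h1, h2⟩, hx⟩, hz⟩, hx'⟩, hz'⟩, hsame⟩ := hrule
      obtain rfl := Nat.eq_of_beq_eq_true hx
      obtain rfl := Nat.eq_of_beq_eq_true hz
      obtain rfl := Nat.eq_of_beq_eq_true hx'
      obtain rfl := Nat.eq_of_beq_eq_true hz'
      obtain ⟨q1, q2, w1, w2⟩ := edge_sq hF E h1
      have e1 := edge hF E h1
      have e2 := edge hF E h2
      show P E r s ∈ _
      have hrs : P E r s = P E r' s' := by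
        rcases hsame with ⟨c1, c2⟩ | ⟨c1, c2⟩
        · rw [same_eq hF E c1 w1, same_eq hF E c2 w2] at e2
          exact mul_right_cancel (e1.symm.trans e2)
        · rw [same_eq hF E c1 w1, same_eq hF E c2 w2, e1] at e2
          have hc : P E r s * P E r s = 1 := P_sq_com hF E hor.1.1
          rw [← mul_assoc] at e2
          have := mul_right_cancel ((one_mul (P E r y)).trans e2)
          calc P E r s = (P E r' s' * P E r s) * P E r s := by rw [← this, one_mul]
            _ = _ := by rw [mul_assoc, hc, mul_one]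
      rw [hrs]; exact hmem
    · simp at hrule
  have hcon := orth_mem r hr s hs ho
  rw [List.contains_iff_mem, List.mem_map] at hcon
  obtain ⟨c, hc, e⟩ := hcon
  obtain ⟨i, hi, rfl⟩ := List.mem_iff_getElem.1 hc
  have := key i (cert_len ▸ hi)
  rw [List.getD_eq_getElem _ _ hi] at this
  simp only [Prod.mk.injEq] at e
  rwa [e.1, e.2] at this

end CfsgLib.DFourTwo
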