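import Cfsg.Agent.Lib.DFourTwo.Data

/-! The checks of the tables. -/

set_option autoImplicit false

namespace CfsgLib.DFourTwo

open Cfsg.Lie CfsgLib.ChevMult

/-- the chosen pair -/
def canon (k : ℕ) : ℕ × ℕ := canonL.getD k (0, 0)

theorem canon_ok : ∀ k < 24, sumB (canon k).1 (canon k).2 k = true := by decide +kernel

theorem cert_chk : ∀ i < 144, chk i = true := by decide +kernel

theorem cert_len : cert.length = 144 := by decide +kernel

theorem orth_mem : ∀ r < 24, ∀ s < 24, orthB r s = true →
    (cert.map fun c => (c.1, c.2.1)).contains (r, s) = true := by decide +kernel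

theorem classify : ∀ r < 24, ∀ s < 24, s ≠ chevD4.neg r →
    (killB r s || orthB r s || sumB r s (sumIdx r s)) = true := by decide +kernel

theorem linked : ∀ r < 24, ∀ s < 24, sumB r s (sumIdx r s) = true →
    (Nat.blt (sumIdx r s) 24 && killB r (sumIdx r s) &&
      linkB r s (sumIdx r s) (canon (sumIdx r s)).1 (canon (sumIdx r s)).2) = true := by decide +kernel

theorem triangle : (edgeOkB 14 12 21 15 22 23 && edgeOkB 14 13 20 16 22 23 && edgeOkB 15 18 16 20 21 23) = true := by
  decide +kernel

theorem roots_eq : cert.take 3 = [(15, 22, 0, 0, []), (16, 22, 0, 1, []), (20, 21, 0, 2, [])] := by decide +kernel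

end CfsgLib.DFourTwo
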