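import Cfsg.Agent.Lib.DFourTwo.Bound

/-!
The lifts in a central extension in which the orthogonal root elements commute, and the bound on the kernel.
-/

set_option autoImplicit false
set_option linter.unusedSectionVars false

namespace CfsgLib.DFourTwo

open Cfsg.Lie CfsgLib.ChevMult CfsgLib.Chevalley CfsgLib.SteinbergPres
open scoped commutatorElement

universe u

variable {A : Aux} {F : Type*} [Field F] {hS : Std chevD4 A} {Γ : Type u} [Group Γ]
variable {π : Γ →* ↥(chevD4.group F)} (hF : ∀ s : F, s = 0 ∨ s = 1)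

theorem sum_terms {r s k : ℕ} (h : sumB r s k = true) :
    k = sumIdx r s ∧ ∃ C : ℤ, (C = 1 ∨ C = -1) ∧ chevD4.commTerms r s = [(k, C, 1, 1)] := by
  simp only [sumB, ChevMult.singleB, Bool.and_eq_true, decide_eq_true_eq] at h
  rcases h.1.2 with e | e
  · exact ⟨by simp [sumIdx, e], 1, Or.inl rfl, e⟩
  · exact ⟨by simp [sumIdx, e], -1, Or.inr rfl, e⟩

theorem canon_kill {k : ℕ} (hk : k < 24) :
    (canon k).1 < 24 ∧ (canon k).2 < 24 ∧ killB (canon k).1 k = true := by
  have h := canon_ok k hk
  obtain ⟨he, -⟩ := sum_terms h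
  have h' := h
  simp only [sumB, ChevMult.singleB, Bool.and_eq_true, decide_eq_true_eq] at h'
  have ha : (canon k).1 < 24 := h'.1.1.1
  have hb : (canon k).2 < 24 := h'.1.1.2.1
  have := linked _ ha _ hb (by rw [← he]; exact h)
  simp only [Bool.and_eq_true] at this
  rw [← he] at this
  exact ⟨ha, hb, this.1.2⟩

open Classical in
/-- the lifts -/
noncomputable def lifts (E : CExt hS π) (k : ℕ) (t : F) : Γ :=
  if t = 0 then 1 else P E (canon k).1 (canon k).2

include hF in
theorem sum_eq_canon (E : CExt hS π) (hK : ∀ r < 24, ∀ s < 24, orthB r s = true → P E r s = 1)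
    {r s k : ℕ} (h : sumB r s k = true) (hr : r < 24) (hs : s < 24) :
    k < 24 ∧ P E r s = P E (canon k).1 (canon k).2 ∧ P E r s * P E r s = 1 := by
  obtain ⟨rfl, -⟩ := sum_terms h
  have hl := linked r hr s hs h
  simp only [Bool.and_eq_true] at hl
  have hk : sumIdx r s < 24 := Nat.le_of_ble_eq_true hl.1.1
  have hsq := P_sq_sum hF E h hl.1.2
  refine ⟨hk, ?_, hsq⟩
  set k := sumIdx r s
  have hc := canon_ok k hk
  obtain ⟨c1, c2, c3⟩ := canon_kill hk
  have hcsq := P_sq_sum hF E hc c3
  have hlink := hl.2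
  simp only [linkB, Bool.or_eq_true, List.any_eq_true, Bool.and_eq_true] at hlink
  rcases hlink with h' | ⟨a, -, m, -, -, y, -, he, hc'⟩
  · exact (same_eq hF E h' (P_swap_of hF E hsq)).symm
  have e1 := edge hF E he
  obtain ⟨q1, q2, w1, w2⟩ := edge_sq hF E he
  simp only [edgeOkB, Bool.and_eq_true] at he
  obtain ⟨⟨⟨⟨⟨⟨⟨⟨ham, hmy⟩, hxy⟩, -⟩, -⟩, hxy'⟩, -⟩, -⟩, -⟩ := he
  have hw : P E (sumIdx a m) (sumIdx m y) = 1 := by
    have hb : ∀ {p q}, okComB chevD4 p q = true → P E p q = 1 := fun {p q} hpq => by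
      have h0 := hpq
      simp only [okComB, Bool.and_eq_true, decide_eq_true_eq] at h0
      have := classify p h0.1.1 q h0.1.2.1 h0.1.2.2
      simp only [Bool.or_eq_true] at this
      rcases this with (h' | h') | h'
      · exact kill_eq E h'
      · exact hK p h0.1.1 q h0.1.2.1 h'
      · exfalso
        obtain ⟨-, C, -, e⟩ := sum_terms h'
        simp only [sumB, ChevMult.singleB, Bool.and_eq_true, decide_eq_true_eq] at h'
        rcases (Bool.or_eq_true _ _ ▸ h0.2) with hh | hh
        · exact h'.1.1.2.2.1 (Nat.eq_of_beq_eq_true hh)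
        · rw [e] at hh; simp at hh
    exact hb hxy'
  rw [hw, one_mul] at e1
  rcases hc' with ⟨u1, u2⟩ | ⟨u1, u2⟩
  · rw [← same_eq hF E u2 (P_swap_of hF E hcsq), ← e1, ← same_eq hF E u1 (P_swap_of hF E hsq)]
  · rw [← same_eq hF E u2 (P_swap_of hF E hsq), ← e1, ← same_eq hF E u1 (P_swap_of hF E hcsq)]

include hF in
theorem lifts_spec (E : CExt hS π) (hK : ∀ r < 24, ∀ s < 24, orthB r s = true → P E r s = 1) :
    Lifts hS π (lifts E) := by
  have hmap : ∀ r < 24, ∀ t : F, π (lifts E r t) = xg hS.cert r t := fun r hr t => by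
    rcases hF t with rfl | rfl
    · simp [lifts, xg_zero]
    · simp only [lifts, one_ne_zero, if_false]
      exact map_P_of_sum hF E (canon_ok r hr)
  refine ⟨fun r hr => hmap r hr, fun r hr t u => ?_, fun r hr s hs h1 h2 t u => ?_⟩
  · rcases hF t with rfl | rfl <;> rcases hF u with rfl | rfl
    · simp [lifts]
    · simp [lifts]
    · simp [lifts]
    · rw [two_eq hF]
      simp only [lifts, one_ne_zero, if_false, if_true]
      exact P_sq_sum hF E (canon_ok r hr) (canon_kill hr).2.2
  have hr' : r < 24 := hr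
  have hs' : s < 24 := hs
  have hX0 : ∀ k, lifts E k (0 : F) = 1 := fun k => by simp [lifts]
  have hcl := classify r hr' s hs' h2
  simp only [Bool.or_eq_true] at hcl
  by_cases hsum : sumB r s (sumIdx r s) = true
  · obtain ⟨-, C, hC, e⟩ := sum_terms hsum
    obtain ⟨hk, hcan, hsq⟩ := sum_eq_canon hF E hK hsum hr' hs'
    rw [ChevalleyDatum.commWord, e]
    simp only [List.map_cons, List.map_nil, List.prod_cons, List.prod_nil, mul_one, pow_one]
    rcases hF t with rfl | rfl
    · simp [hX0]
    rcases hF u with rfl | rfl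
    · simp [hX0]
    have hC1 : (C : F) * -1 * 1 = 1 := by
      rw [mul_neg_one, ← mul_one (-(C : F))]
      exact one_of_sign hF hC
    rw [hC1]
    have hinv : ∀ q, q < 24 → π (lifts E q (1 : F))⁻¹ = xg hS.cert q 1 := fun q hq => by
      rw [map_inv, hmap q hq, inv_eq_of_mul_eq_one_right (g_sq (hS := hS) hF q)]
    have h := E.cl_eq (a := (lifts E s (1 : F))⁻¹) (b := (lifts E r (1 : F))⁻¹) (hinv s hs') (hinv r hr')
    rw [commutatorElement_def, inv_inv, inv_inv] at h
    rw [h]
    show P E s r = _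
    rw [P_swap_of hF E hsq, hcan]
    simp [lifts]
  · have hP : P E r s = 1 := by
      rcases hcl with (h' | h') | h'
      · exact kill_eq E h'
      · exact hK r hr' s hs' h'
      · exact absurd h' hsum
    have hok : okComB chevD4 r s = true := by
      rcases hcl with (h' | h') | h'
      · simp only [killB, Bool.and_eq_true] at h'; exact h'.1
      · simp only [orthB, Bool.and_eq_true] at h'; exact h'.1.1
      · exact absurd h' hsum
    simp only [okComB, Bool.and_eq_true, Bool.or_eq_true, List.isEmpty_iff] at hok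
    have e := hok.2.resolve_left fun hh => h1 (Nat.eq_of_beq_eq_true hh)
    rw [ChevalleyDatum.commWord, e]
    simp only [List.map_nil, List.prod_nil]
    rcases hF t with rfl | rfl
    · simp [hX0]
    rcases hF u with rfl | rfl
    · simp [hX0]
    have hc : Commute (lifts E r (1 : F)) (lifts E s (1 : F)) :=
      commutatorElement_eq_one_iff_commute.1 (by rw [E.cl_eq (hmap r hr' 1) (hmap s hs' 1)]; exact hP)
    rw [mul_assoc _ (lifts E s 1), ← hc.eq]
    group

/-- A stem extension of the group has kernel generated by two commutators of order two. -/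
theorem exists_ker_gens [Finite F] (h : Full chevD4 A) (hF : ∀ s : F, s = 0 ∨ s = 1) [Finite Γ]
    (hπ : Cfsg.IsStemExtension π) :
    ∃ b₁ b₂ : Γ, b₁ ∈ π.ker ∧ b₂ ∈ π.ker ∧ b₁ * b₁ = 1 ∧ b₂ * b₂ = 1 ∧
      π.ker ≤ Subgroup.closure {b₁, b₂} := by
  classical
  have E : CExt h.toStd π := ⟨hπ.1, hπ.2.1⟩
  have ok1 : okComB chevD4 15 22 = true := by decide +kernel
  have ok2 : okComB chevD4 16 22 = true := by decide +kernel
  have m1 := map_P_of_com E ok1
  have m2 := map_P_of_com E ok2
  set K := Subgroup.closure {B₁ E, B₂ E} with hKdef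
  have hKk : K ≤ π.ker := (Subgroup.closure_le _).2 (by
    rintro x (rfl | rfl)
    · exact m1
    · exact m2)
  have hN : K.Normal := ⟨fun z hz g => by
    rw [E.mul_comm_ker (hKk hz) g, mul_inv_cancel_right]; exact hz⟩
  let π' : Γ ⧸ K →* ↥(chevD4.group F) := QuotientGroup.lift K π hKk
  have hker : ∀ g : Γ ⧸ K, π' g = 1 → ∃ x ∈ π.ker, (x : Γ ⧸ K) = g := fun g hg => by
    obtain ⟨x, rfl⟩ := QuotientGroup.mk_surjective g
    exact ⟨x, hg, rfl⟩
  have hstem : Cfsg.IsStemExtension π' := ⟨fun g => let ⟨x, hx⟩ := hπ.1 g; ⟨x, hx⟩, fun g hg => by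
    obtain ⟨x, hx, rfl⟩ := hker g hg
    rw [Subgroup.mem_center_iff]
    intro y
    obtain ⟨y, rfl⟩ := QuotientGroup.mk_surjective y
    exact congrArg (QuotientGroup.mk (s := K)) (E.mul_comm_ker hx y), fun g hg => by
    obtain ⟨x, hx, rfl⟩ := hker g hg
    have := Subgroup.mem_map_of_mem (QuotientGroup.mk' K) (hπ.2.2 hx)
    rw [commutator_def, Subgroup.map_commutator] at this
    rw [commutator_def]
    exact Subgroup.commutator_mono le_top le_top this⟩
  have E' : CExt h.toStd π' := ⟨hstem.1, hstem.2.1⟩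
  have hK' : ∀ r < 24, ∀ s < 24, orthB r s = true → P E' r s = 1 := fun r hr s hs ho => by
    have e : P E' r s = QuotientGroup.mk' K (P E r s) := by
      rw [P, P, CExt.cl, CExt.cl, map_commutatorElement]
      exact E'.comm_congr ((E'.map_lift r 1).trans (E.map_lift r 1).symm) ((E'.map_lift s 1).trans (E.map_lift s 1).symm)
    rw [e]
    exact (QuotientGroup.eq_one_iff _).2 (P_mem hF E hr hs ho)
  -- the projection of Steinberg's group is an isomorphism
  have hsub : Subsingleton Fˣ := ⟨fun a b => Units.ext (by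
    rw [(hF a).resolve_left a.ne_zero, (hF b).resolve_left b.ne_zero])⟩
  have hcen : Subgroup.center (chevD4.SteinbergGroup F) = ⊥ := by
    obtain ⟨σ, η, cart, coro, par, dep, w0, C, hE⟩ := hasStCert_of_mem h.mem F
    rw [eq_bot_iff]
    intro g hg
    obtain ⟨c, rfl⟩ := C.exists_torPhi h hE (C.ker_le_tor h hE (C.center_le_ker h hE hg))
    rw [Subsingleton.elim c 1, map_one]
    exact one_mem _
  let e := MulEquiv.ofBijective (thetaGroup (K := F) h)
    ⟨(MonoidHom.ker_eq_bot_iff _).1 (by rw [ker_thetaGroup h, hcen]), thetaGroup_surjective h⟩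
  let ρ : Γ ⧸ K →* chevD4.SteinbergGroup F := e.symm.toMonoidHom.comp π'
  have hρπ : (thetaGroup h).comp ρ = π' := MonoidHom.ext fun g => e.apply_symm_apply (π' g)
  have hρ : Cfsg.IsStemExtension ρ := (SchurMult.isStemExtension_comp_equiv hstem e.symm).1
  have hperf : commutator (chevD4.SteinbergCover F) = ⊤ := cover_perfect (by simp) fun h => absurd h (by
    simp only [List.mem_cons, List.not_mem_nil, or_false, not_or]
    exact ⟨fun e => absurd (congrArg ChevalleyDatum.nroots e) (by decide),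
      fun e => absurd (congrArg ChevalleyDatum.nroots e) (by decide)⟩)
  have hbot := ker_eq_bot_of_lifts h hperf hρ (fun hE => by
    rw [hρπ]; exact ⟨_, lifts_spec hF E' hK'⟩)
  refine ⟨B₁ E, B₂ E, m1, m2, P_sq_com hF E ok1, P_sq_com hF E ok2, fun x hx => ?_⟩
  have : (x : Γ ⧸ K) ∈ ρ.ker := by
    show e.symm (π' x) = 1
    rw [show π' (x : Γ ⧸ K) = π x from rfl, MonoidHom.mem_ker.1 hx, map_one]
  rw [hbot, Subgroup.mem_bot, QuotientGroup.eq_one_iff] at this
  exact this

end CfsgLib.DFourTwo
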